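import Cfsg.Agent.Glaub.Qd3
import Cfsg.Agent.Push.WcT

/-! The group `F(p)` and eigenvalues of tori coming from quadratic action. -/

set_option autoImplicit false
set_option linter.unusedSectionVars false
set_option backward.isDefEq.respectTransparency false

namespace Cfsg.Agent.Glaub

open Subgroup Cfsg.Agent.LocalEven Multiplicative Cfsg.Agent.Push
open Matrix hiding mul_apply
open scoped commutatorElement MatrixGroups
open Cfsg.Agent.Classical.SL2Basic Cfsg.Agent.Classical.Borel2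

universe u

variable {G G' : Type*} [Group G] [Group G'] {p : ℕ} {B M Z B' M' Z' : Subgroup G}

/-- `M` induces the Borel subgroup of `SL₂(p)` on a section of order `p²` of `B`. -/
def Pl (p : ℕ) (B M : Subgroup G) : Prop :=
  ∃ (W : Subgroup G) (ψ : G → Fin 2 → ZMod p), W ≤ B ∧ (∀ u ∈ W, ∀ v ∈ W, ψ (u * v) = ψ u + ψ v) ∧
    (∀ x, ∃ u ∈ W, ψ u = x) ∧ ∀ s : SL(2, ZMod p), s 1 0 = 0 →
      ∃ m ∈ M, ∀ w ∈ W, m * w * m⁻¹ ∈ W ∧ ψ (m * w * m⁻¹) = s.1 *ᵥ ψ w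

/-- An element of `M` has a primitive root as eigenvalue on `Z`. -/
def Eig (p : ℕ) (Z M : Subgroup G) : Prop :=
  ∃ t ∈ M, ∃ n : ℕ, orderOf (n : ZMod p) = p - 1 ∧ ∃ v ∈ Z, v ≠ 1 ∧ t * v * t⁻¹ = v ^ n

theorem Pl.of_act (h : Pl p B M) (h1 : B ≤ B')
    (h2 : ∀ m ∈ M, ∃ k ∈ M', ∀ w ∈ B, k * w * k⁻¹ = m * w * m⁻¹) : Pl p B' M' := by
  obtain ⟨W, ψ, a1, a2, a3, a4⟩ := h
  refine ⟨W, ψ, a1.trans h1, a2, a3, fun s hs => ?_⟩
  obtain ⟨m, hm, e⟩ := a4 s hs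
  obtain ⟨k, hk, e'⟩ := h2 m hm
  exact ⟨k, hk, fun w hw => by rw [e' w (a1 hw)]; exact e w hw⟩

theorem Eig.of_act (h : Eig p Z M) (h1 : Z ≤ Z')
    (h2 : ∀ m ∈ M, ∃ k ∈ M', ∀ w ∈ Z, k * w * k⁻¹ = m * w * m⁻¹) : Eig p Z' M' := by
  obtain ⟨t, ht, n, hn, v, a1, a2, a3⟩ := h
  obtain ⟨k, hk, e⟩ := h2 t ht
  exact ⟨k, hk, n, hn, v, h1 a1, a2, (e v a1).trans a3⟩

theorem Pl.map (h : Pl p B M) {f : G →* G'} (hf : Function.Injective f) :
    Pl p (B.map f) (M.map f) := by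
  obtain ⟨W, ψ, a1, a2, a3, a4⟩ := h
  have e := Function.leftInverse_invFun hf
  refine ⟨W.map f, ψ ∘ Function.invFun f, map_mono a1, ?_, fun x => ?_, fun s hs => ?_⟩
  · rintro _ ⟨u, hu, rfl⟩ _ ⟨v, hv, rfl⟩
    simp only [Function.comp, ← map_mul, e _, a2 u hu v hv]
  · obtain ⟨u, hu, rfl⟩ := a3 x
    exact ⟨f u, mem_map_of_mem f hu, congrArg ψ (e u)⟩
  · obtain ⟨m, hm, h⟩ := a4 s hs
    refine ⟨f m, mem_map_of_mem f hm, ?_⟩
    rintro _ ⟨w, hw, rfl⟩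
    simp only [Function.comp, ← map_inv, ← map_mul, e _]
    exact ⟨mem_map_of_mem f (h w hw).1, (h w hw).2⟩

theorem Eig.map (h : Eig p Z M) {f : G →* G'} (hf : Function.Injective f) :
    Eig p (Z.map f) (M.map f) := by
  obtain ⟨t, ht, n, hn, v, a1, a2, a3⟩ := h
  exact ⟨f t, mem_map_of_mem f ht, n, hn, f v, mem_map_of_mem f a1,
    fun e => a2 ((map_eq_one_iff f hf).1 e), by simpa using congrArg f a3⟩

theorem Pl.of_map {f : G →* G'} (h : Pl p (B.map f) (M.map f)) (hk : f.ker ≤ B) : Pl p B M := by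
  obtain ⟨W, ψ, a1, a2, a3, a4⟩ := h
  refine ⟨W.comap f, ψ ∘ f, (comap_mono a1).trans (comap_map_eq_self hk).le,
    fun u hu v hv => by simpa using a2 _ hu _ hv, fun x => ?_, fun s hs => ?_⟩
  · obtain ⟨u, hu, rfl⟩ := a3 x
    obtain ⟨v, -, rfl⟩ := a1 hu
    exact ⟨v, hu, rfl⟩
  · obtain ⟨_, ⟨m, hm, rfl⟩, h⟩ := a4 s hs
    exact ⟨m, hm, fun w hw => by simpa using h _ hw⟩

theorem Eig.of_map [Finite G] {f : G →* G'} (h : Eig p (Z.map f) (M.map f)) (hc : Z ≤ 𝐂⟮Z⟯)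
    (hn : M ≤ 𝐍⟮Z⟯) : Eig p Z M := by
  obtain ⟨_, ⟨t, ht, rfl⟩, n, h1, _, ⟨v, hv, rfl⟩, a2, a3⟩ := h
  refine ⟨t, ht, n, h1, by_contra fun hne => a2 ?_⟩
  push Not at hne
  set X := Z ⊓ (zpowers (f v)).comap f
  have k1 : ∀ x ∈ X, f (t * x * t⁻¹ * (x ^ n)⁻¹) = 1 := fun x hx => by
    obtain ⟨k, hk⟩ := mem_zpowers_iff.1 hx.2
    simp only [map_mul, map_inv, map_pow]
    rw [← hk, ← conj_zpow, a3]; group
  have k2 : ∀ x : X, (x : G) ∈ Z := fun x => x.2.1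
  let φ : X → X := fun x => ⟨t * x * t⁻¹ * ((x : G) ^ n)⁻¹, mem_inf.2 ⟨mul_mem
    (conj_mem_of_mem_normalizer (hn ht) (k2 x)) (inv_mem (pow_mem (k2 x) n)), by
      rw [mem_comap, k1 x x.2]; exact one_mem _⟩⟩
  have hφ : Function.Injective φ := fun x y e => by
    have e : t * x * t⁻¹ * ((x : G) ^ n)⁻¹ = t * y * t⁻¹ * ((y : G) ^ n)⁻¹ := congrArg Subtype.val e
    have c : Commute (y : G)⁻¹ x := hc (k2 x) _ (inv_mem (k2 y))
    refine Subtype.ext (inv_mul_eq_one.1 (by_contra fun h0 =>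
      hne _ (mul_mem (inv_mem (k2 y)) (k2 x)) h0 ?_)).symm
    rw [c.mul_pow, show t * ((y : G)⁻¹ * x) * t⁻¹ =
      (t * y * t⁻¹)⁻¹ * (t * x * t⁻¹ * ((x : G) ^ n)⁻¹) * (x : G) ^ n by group, e]
    group
  obtain ⟨x, hx⟩ := Finite.injective_iff_surjective.1 hφ ⟨v, hv, mem_zpowers _⟩
  rw [← k1 x x.2]; exact congrArg f (congrArg Subtype.val hx).symm

theorem Pl.of_ind (ι : Multiplicative (Fin 2 → ZMod p) →* G) (hι : Function.Injective ι)
    (hB : ι.range ≤ B) (h : ∀ s : SL(2, ZMod p), s 1 0 = 0 → ∃ m ∈ M, (m, s) ∈ indSL ι) :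
    Pl p B M := by
  have e := Function.leftInverse_invFun hι
  refine ⟨ι.range, fun g => (Function.invFun ι g).toAdd, hB, ?_, fun x => ⟨_, ⟨ofAdd x, rfl⟩, ?_⟩,
    fun s hs => ?_⟩
  · rintro _ ⟨u, rfl⟩ _ ⟨v, rfl⟩
    simp only [← map_mul, e _, toAdd_mul]
  · simp only [e _, toAdd_ofAdd]
  · obtain ⟨m, hm, h⟩ := h s hs
    refine ⟨m, hm, ?_⟩
    rintro _ ⟨w, rfl⟩
    have := h w.toAdd
    rw [ofAdd_toAdd] at this
    rw [this]
    exact ⟨⟨_, rfl⟩, by simp only [e _, toAdd_ofAdd]⟩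

theorem exists_aff_of_fOver {F : Type*} [Field F] {X : SL(3, F)} (h : X ∈ fOver F) :
    ∃ x s, X = aff x s ∧ s 1 0 = 0 := by
  induction h using closure_induction with
  | mem M h =>
    obtain ⟨x, s, rfl⟩ := exists_aff (subset_closure h.2)
    exact ⟨x, s, rfl, h.1⟩
  | one => exact ⟨0, 1, aff_one.symm, rfl⟩
  | mul _ _ _ _ h1 h2 =>
    obtain ⟨x, s, rfl, h1⟩ := h1
    obtain ⟨y, t, rfl, h2⟩ := h2
    exact ⟨_, _, aff_mul _ _ _ _, by rw [mul_apply, h1, h2]; simp⟩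
  | inv _ _ h =>
    obtain ⟨x, s, rfl, h⟩ := h
    exact ⟨_, _, aff_inv _ _, by rw [inv_apply10, h, neg_zero]⟩

variable [hp : Fact p.Prime] [Finite G]

theorem Pl.section (hp2 : p ≠ 2) (h : Pl p B M) : Transfer.IsSectionOf G (fOver (ZMod p)) := by
  haveI := Fact.mk Nat.prime_two
  obtain ⟨W, ψ, -, a2, a3, a4⟩ := h
  have b1 : ψ 1 = 0 := by simpa using a2 1 (one_mem _) 1 (one_mem _)
  have b2 : ∀ u ∈ W, ψ u⁻¹ = -ψ u := fun u hu => by
    rw [eq_neg_iff_add_eq_zero, ← a2 _ (inv_mem hu) _ hu, inv_mul_cancel, b1]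
  have b3 : ∀ u ∈ W, ∀ k : ℕ, ψ (u ^ k) = k • ψ u := fun u hu k => by
    induction k with
    | zero => simpa using b1
    | succ k ih => rw [pow_succ, a2 _ (pow_mem hu k) _ hu, ih, succ_nsmul]
  let Γ : Subgroup (G × SL(2, ZMod p)) :=
    { carrier := {y | y.1 ∈ 𝐍⟮W⟯ ∧ ∀ w ∈ W, ψ (y.1 * w * y.1⁻¹) = y.2.1 *ᵥ ψ w}
      one_mem' := ⟨one_mem _, fun w _ => by simp⟩
      mul_mem' := fun {y z} hy hz => ⟨mul_mem hy.1 hz.1, fun w hw => by
        rw [Prod.snd_mul, Matrix.SpecialLinearGroup.coe_mul, ← mulVec_mulVec, ← hz.2 w hw,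
          ← hy.2 _ (conj_mem_of_mem_normalizer hz.1 hw), Prod.fst_mul]
        congr 1; group⟩
      inv_mem' := fun {y} hy => ⟨inv_mem hy.1, fun w hw => by
        have := hy.2 _ (conj_mem_of_mem_normalizer (inv_mem hy.1) hw)
        rw [show y.1 * (y.1⁻¹ * w * y.1⁻¹⁻¹) * y.1⁻¹ = w by group] at this
        rw [this, mulVec_mulVec, Prod.snd_inv, ← Matrix.SpecialLinearGroup.coe_mul, inv_mul_cancel,
          Matrix.SpecialLinearGroup.coe_one, one_mulVec, Prod.fst_inv]⟩ }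
  let σ : Γ →* SL(2, ZMod p) := (MonoidHom.snd _ _).comp Γ.subtype
  have hσ : ∀ s : SL(2, ZMod p), s 1 0 = 0 → ∃ g, σ g = s := fun s hs => by
    obtain ⟨m, -, h⟩ := a4 s hs
    exact ⟨⟨(m, s), mem_normalizer_of_cj_le (cj_le_iff'.2 fun w hw => (h w hw).1),
      fun w hw => (h w hw).2⟩, rfl⟩
  have hc : zpowers (-1 : SL(2, ZMod p)) ≤ center _ :=
    zpowers_le.2 (Classical.SL2Basic.mem_center_iff.2 (Or.inr rfl))
  haveI : (zpowers (-1 : SL(2, ZMod p))).Normal := ⟨fun x hx g => by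
    rwa [Subgroup.mem_center_iff.1 (hc hx) g, mul_inv_cancel_right]⟩
  obtain ⟨T, hT⟩ := exists_isSylowIn 2 ((zpowers (-1 : SL(2, ZMod p))).comap σ)
  have h1 : T.map σ = zpowers (-1) := by
    have := hT.map σ
    rw [map_comap_eq_self (zpowers_le.2 (hσ _ (by simp)))] at this
    exact this.eq_of_isPGroup (isPGroup_zpowers (k := 1) (by simp))
  obtain ⟨t, ht, ht'⟩ : -1 ∈ T.map σ := h1 ▸ mem_zpowers _
  have h3 : ∀ w ∈ W, ∀ n ∈ 𝐍⟮T⟯, w * n.1.1 = 1 → ψ w = 0 ∧ σ n = 1 := by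
    intro w hw n hn e
    have e1 : n.1.1 = w⁻¹ := (inv_eq_of_mul_eq_one_right e).symm
    refine ⟨?_, eq_one_of_mulVec fun x => ?_⟩
    · have e2 := t.2.2 w hw
      rw [show t.1.2 = -1 from ht', Matrix.SpecialLinearGroup.coe_neg,
        Matrix.SpecialLinearGroup.coe_one, neg_mulVec, one_mulVec] at e2
      have e3 : t * (n⁻¹ * t⁻¹ * n) ∈ T := mul_mem ht (inv_conj_mem_of_mem_normalizer hn (inv_mem ht))
      obtain ⟨k, hk⟩ := isPGroup_iff_mem.1 hT.pgrp _ e3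
      have e4 : (t.1.1 * w * t.1.1⁻¹ * w⁻¹) ^ 2 ^ k = 1 := by
        rw [← show (t.1.1 * (n.1.1⁻¹ * t.1.1⁻¹ * n.1.1)) ^ 2 ^ k = 1 from
          congrArg (fun y : Γ => y.1.1) hk, e1]
        group
      have c := conj_mem_of_mem_normalizer t.2.1 hw
      have e5 := b3 _ (mul_mem c (inv_mem hw)) (2 ^ k)
      rw [e4, b1, a2 _ c _ (inv_mem hw), e2, b2 w hw, ← two_nsmul, smul_smul, ← pow_succ,
        ← Nat.cast_smul_eq_nsmul (ZMod p), eq_comm, smul_eq_zero, neg_eq_zero] at e5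
      exact e5.resolve_left (by rw [Nat.cast_pow]; exact pow_ne_zero _ (two_ne_zero_of_char hp2))
    · obtain ⟨u, hu, rfl⟩ := a3 x
      rw [show σ n = n.1.2 from rfl, ← n.2.2 u hu, e1, inv_inv, a2 _ (mul_mem (inv_mem hw) hu) _ hw,
        a2 _ (inv_mem hw) _ hu, b2 w hw]
      abel
  let Δ : Subgroup (G × SL(3, ZMod p)) :=
    { carrier := {y | ∃ w ∈ W, ∃ n ∈ 𝐍⟮T⟯, y = (w * n.1.1, aff (ψ w) (σ n))}
      one_mem' := ⟨1, one_mem _, 1, one_mem _, by simp [b1, aff_one]; rfl⟩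
      mul_mem' := by
        rintro _ _ ⟨x, hx, n, hn, rfl⟩ ⟨y, hy, m, hm, rfl⟩
        have c := conj_mem_of_mem_normalizer n.2.1 hy
        refine ⟨x * (n.1.1 * y * n.1.1⁻¹), mul_mem hx c, n * m, mul_mem hn hm, Prod.ext ?_ ?_⟩
        · change _ * _ * (_ * _) = _ * (n.1.1 * m.1.1)
          group
        · rw [map_mul, a2 _ hx _ c, n.2.2 y hy]; exact aff_mul _ _ _ _
      inv_mem' := by
        rintro _ ⟨x, hx, n, hn, rfl⟩
        refine ⟨n⁻¹.1.1 * x⁻¹ * n⁻¹.1.1⁻¹, conj_mem_of_mem_normalizer n⁻¹.2.1 (inv_mem hx), n⁻¹,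
          inv_mem hn, Prod.ext ?_ ?_⟩
        · change (_ * _)⁻¹ = n.1.1⁻¹ * _ * n.1.1⁻¹⁻¹ * n.1.1⁻¹
          group
        · rw [n⁻¹.2.2 _ (inv_mem hx), b2 x hx, mulVec_neg, map_inv]; exact aff_inv _ _ }
  have hΔ : ∀ m, ((1 : G), m) ∈ Δ → m = 1 := by
    rintro m ⟨x, hx, n, hn, e⟩
    obtain ⟨e1, e2⟩ := h3 x hx n hn (congrArg Prod.fst e).symm
    rw [e1, e2, aff_one] at e
    exact congrArg Prod.snd e
  obtain ⟨φ, hφ⟩ := PLocal.exists_hom_of_graph Δ hΔ _ le_rfl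
  have hle : fOver (ZMod p) ≤ φ.range := fun X hX => by
    obtain ⟨x, s, rfl, hs⟩ := exists_aff_of_fOver hX
    obtain ⟨g, rfl⟩ := hσ s hs
    obtain ⟨w, hw, rfl⟩ := a3 x
    obtain ⟨n, hn, y, hy, rfl⟩ := hT.frattini (g := g) (le_norm_of_normal ⊤ _ trivial)
    obtain ⟨t', ht', e⟩ : σ n ∈ T.map σ := h1 ▸ hn
    have h4 : (w * (t' * y).1.1, aff (ψ w) (σ (n * y))) ∈ Δ :=
      ⟨w, hw, t' * y, mul_mem (le_normalizer ht') hy, by rw [map_mul, map_mul, e]⟩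
    refine ⟨⟨_, _, h4, rfl⟩, ?_⟩
    have := Δ.mul_mem (hφ ⟨_, _, h4, rfl⟩) (Δ.inv_mem h4)
    simp only [Prod.inv_mk, Prod.mk_mul_mk, MonoidHom.coe_fst, mul_inv_cancel] at this
    exact mul_inv_eq_one.1 (hΔ _ this)
  exact (Transfer.IsSectionOf.subgroup ⟨_, φ.rangeRestrict, φ.rangeRestrict_surjective⟩ _).of_surjective
    (subgroupOfEquivOfLe hle).toMonoidHom (subgroupOfEquivOfLe hle).surjective

open scoped IsMulCommutative in
theorem plane_or_pow_fp {G : Type u} [Group G] [Finite G] {V : Subgroup G} [V.Normal]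
    (hV : IsElementaryAbelian p V) {a b : G} (hqa : PLocal.Quad V a) (hqb : PLocal.Quad V b) :
    (∃ (K : Type u) (_ : Field K) (_ : Finite K) (_ : _root_.CharP K p) (l : K)
      (ι : Multiplicative (Fin 2 → K) →* G), l ≠ 0 ∧ Function.Injective ι ∧ ι.range ≤ V ∧
        (a, PLocal.upT K) ∈ indSL ι ∧ (b, PLocal.loT l) ∈ indSL ι) ∨
      ∀ g ∈ closure ({a, b} : Set G), ∃ k : ℕ, g ^ p ^ k ∈ 𝐂⟮V⟯ := by
  haveI := hV.1
  have hn : ∀ g, g ∈ 𝐍⟮V⟯ := fun g => le_norm_of_normal ⊤ V trivial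
  let ρ : G →* AddMonoid.End (Additive V) := (PLocal.conjEnd V).comp
    ((MonoidHom.id G).codRestrict _ hn)
  have hρ : ∀ g v, ((ρ g v).toMul : G) = g * v.toMul * g⁻¹ := fun _ _ => rfl
  have hM : ∀ v : Additive V, p • v = 0 := fun v =>
    Subtype.ext (hV.2 _ (Additive.toMul v).2)
  have hq : ∀ x, PLocal.Quad V x → (ρ x - 1) * (ρ x - 1) = 0 := by
    intro x hx
    have h1 : ∀ v : Additive V, ((Additive.toMul ((ρ x - 1) v) : V) : G) =
        ⁅(x : G), ((Additive.toMul v : V) : G)⁆ := by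
      intro v
      change ((Additive.toMul (ρ x v - v) : V) : G) = _
      rw [toMul_sub, div_eq_mul_inv, coe_mul, hρ, commutatorElement_def]
      rfl
    ext v
    change ((Additive.toMul ((ρ x - 1) ((ρ x - 1) v)) : V) : G) = 1
    rw [h1, h1]
    exact hx _ (Additive.toMul v).2
  by_cases hc : IsNilpotent ((ρ a - 1) * (ρ b - 1) + (ρ b - 1) * (ρ a - 1))
  · right
    intro g hg
    obtain ⟨k, hk⟩ := pow_eq_one_of_isNilpotent (p := p) (by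
      ext v
      rw [AddMonoid.End.natCast_apply, hM]
      rfl) ρ (hq a hqa) (hq b hqb) hc g hg
    refine ⟨k, mem_cent.2 fun v hv => ?_⟩
    have := hρ (g ^ p ^ k) (Additive.ofMul ⟨v, hv⟩)
    rw [hk] at this
    exact this.symm
  · left
    obtain ⟨K, _, _, _, l, ι, hl, hι, h1, h2⟩ := exists_plane hM (hq a hqa) (hq b hqb) hc
    refine ⟨K, inferInstance, inferInstance, inferInstance, l,
      V.subtype.comp (AddMonoidHom.toMultiplicativeLeft ι), hl, V.subtype_injective.comp hι,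
      by rintro _ ⟨x, rfl⟩; exact Subtype.prop _, fun x => ?_, fun x => ?_⟩
    · refine (hρ a (ι x)).symm.trans (congrArg (fun v : Additive V => (v.toMul : G)) ?_)
      have : ρ a (ι x) = ι x + (ρ a - 1) (ι x) := by
        change _ = _ + (ρ a (ι x) - ι x); abel
      rw [this, h1, ← map_add]
      congr 1
      ext i
      fin_cases i <;> simp [PLocal.upT, mulVec, dotProduct]
    · refine (hρ b (ι x)).symm.trans (congrArg (fun v : Additive V => (v.toMul : G)) ?_)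
      have : ρ b (ι x) = ι x + (ρ b - 1) (ι x) := by
        change _ = _ + (ρ b (ι x) - ι x); abel
      rw [this, h2, ← map_add]
      congr 1
      ext i
      fin_cases i <;> simp [PLocal.loT, mulVec, dotProduct, add_comm]

/-- Dickson's theorem, compatible with the Borel subgroup. -/
theorem exists_conj_borel (hp2 : p ≠ 2) {K : Type*} [Field K] [Finite K] [_root_.CharP K p] {l : K}
    (hl : l ≠ 0) {H : Subgroup SL(2, K)} (ha : PLocal.upT K ∈ H) (hb : PLocal.loT l ∈ H) :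
    ∃ c : GL (Fin 2) K, c 1 0 = 0 ∧ ∀ s : SL(2, ZMod p), ∃ h ∈ H,
      c.val * h.1 * (c⁻¹).val = s.1.map (ZMod.castHom (dvd_refl p) K) := by
  obtain ⟨L, c, hL⟩ := Classical.DicksonSL.exists_subPSL_le _ hp2
    (Classical.DicksonSL.card_sylow_map_ne_one H
      (PLocal.card_sylow_ne_one_of_upT_loT hl H ha hb))
  rw [← Classical.DicksonSL.map_toPGL_conjSL] at hL
  have h1 := Classical.DicksonSL.range_map_le_of_subPSL_le p hL
  have : _root_.CharP L p := (L.subtype.charP_iff_charP p).2 inferInstance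
  have h2 : ∀ s : SL(2, ZMod p), ∃ h ∈ H, conjSL c h =
      SpecialLinearGroup.map (ZMod.castHom (dvd_refl p) K) s := fun s => by
    obtain ⟨h, h3, h4⟩ := h1 ⟨SpecialLinearGroup.map (ZMod.castHom (dvd_refl p) L) s, rfl⟩
    refine ⟨h, h3, h4.trans ?_⟩
    rw [← RingHom.ext_zmod (L.subtype.comp (ZMod.castHom (dvd_refl p) L))
      (ZMod.castHom (dvd_refl p) K)]
    rfl
  obtain ⟨u, u1, u2⟩ := h2 (upper 1)
  have u3 : conjSL c u = upper 1 := u2.trans (sl2_ext (by simp [upper]) (by simp [upper])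
    (by simp [upper]) (by simp [upper]))
  have e1 : PLocal.upT K = upper 1 := rfl
  have pz : ∀ x : SL(2, K), x ^ p = 1 → IsPGroup p (zpowers x) := fun x hx =>
    isPGroup_zpowers (k := 1) (by rwa [pow_one])
  obtain ⟨P, hP, hP'⟩ := exists_isSylowIn_le (pz _ (e1 ▸ upper_pow_char 1)) (zpowers_le.2 ha)
  obtain ⟨k, hk, hk'⟩ := hP.exists_cj_le (pz u ((conjSL c).injective (by
    rw [map_pow, u3, upper_pow_char, map_one]))) (zpowers_le.2 u1)
  obtain ⟨P', hP''⟩ := hP.pgrp.exists_le_sylow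
  have e2 : P' = sylSL K p := by_contra fun e => one_ne_zero (upper_injective ((mem_bot.1
    (((isRootSylow_SL p).inf_eq_bot e).le ⟨hP'' (hP' (e1 ▸ mem_zpowers _)),
      mem_USL.2 ⟨1, rfl⟩⟩)).trans upper_zero.symm))
  rw [cj_zpowers, zpowers_le] at hk'
  obtain ⟨β, hβ⟩ := mem_USL.1 (show k * u * k⁻¹ ∈ sylSL K p from e2 ▸ hP'' hk')
  set d := c * SpecialLinearGroup.toGL k⁻¹
  have hd : ∀ h, conjSL d (k * h * k⁻¹) = conjSL c h := fun h =>
    SpecialLinearGroup.toGL_injective (by simp only [toGL_conjSL, d, map_mul, map_inv]; group)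
  refine ⟨d, ?_, fun s => ?_⟩
  · have e3 := hd u
    rw [← hβ, u3] at e3
    have e4 : d.val * (upper β).1 = (upper (1 : K)).1 * d.val := by
      rw [← e3]; change _ = d.val * _ * (d⁻¹).val * d.val
      rw [mul_assoc, Units.inv_mul, mul_one]
    have e5 := congrFun (congrFun e4 1) 1
    have hβ0 : β ≠ 0 := fun e => one_ne_zero (upper_injective (by
      rw [← e3, e, upper_zero, map_one]))
    simpa [upper, Matrix.mul_apply, hβ0] using e5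
  · obtain ⟨h, h3, h4⟩ := h2 s
    exact ⟨_, mul_mem (mul_mem hk h3) (inv_mem hk), congrArg Subtype.val ((hd h).trans h4)⟩

theorem pl_of_min {G : Type u} [Group G] [Finite G] (hp2 : p ≠ 2) {V M Z : Subgroup G} [V.Normal]
    (hV : IsElementaryAbelian p V) (hmin : ∀ N : Subgroup G, N.Normal → N ≤ V → N = ⊥ ∨ N = V)
    {a b : G} (hM : ∀ X : Subgroup G, a ∈ X → 𝐂⟮V⟯ ≤ X → X ≠ ⊤ → X ≤ M)
    (hgen : ⊤ ≤ closure {a, b} ⊔ 𝐂⟮V⟯) (hqa : PLocal.Quad V a) (hqb : PLocal.Quad V b)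
    (hR : ¬ pResOf p ⊤ ≤ 𝐂⟮V⟯) (hZ : M ≤ 𝐍⟮Z⟯) (hZR : ⁅Z, pResOf p ⊤⁆ ≤ V)
    (hRZ : ¬ pResOf p ⊤ ≤ 𝐂⟮Z⟯) : Pl p V M ∧ Eig p Z M := by
  obtain ⟨K, _, _, _, l, ι, hl, hι, hr, ha, hb⟩ := (plane_or_pow_fp hV hqa hqb).resolve_right
    fun h => hR (pResOf_le_of_pow_mem fun g hg => by
      obtain ⟨w, hw, c, hc, rfl⟩ := (mem_sup_of_normal_right).1 (hgen hg)
      obtain ⟨k, hk⟩ := h w hw
      refine ⟨k, (QuotientGroup.eq_one_iff _).1 ?_⟩
      rw [QuotientGroup.mk_pow, QuotientGroup.mk_mul_of_mem w hc, ← QuotientGroup.mk_pow]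
      exact (QuotientGroup.eq_one_iff _).2 hk)
  have hC : ∀ c ∈ 𝐂⟮V⟯, (c, 1) ∈ indSL ι := fun c hc x => by
    simpa using mem_cent.1 hc _ (hr ⟨ofAdd x, rfl⟩)
  have all : ∀ g, ∃ s, (g, s) ∈ indSL ι := fun g => by
    obtain ⟨y, hy, rfl⟩ := (hgen.trans (sup_le ((closure_le _).2 (by
      rintro _ (rfl | rfl)
      exacts [⟨_, ha, rfl⟩, ⟨_, hb, rfl⟩])) fun c hc => ⟨_, hC c hc, rfl⟩) :
        ⊤ ≤ (indSL ι).map (MonoidHom.fst _ _)) (mem_top g)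
    exact ⟨y.2, hy⟩
  have hVr : V ≤ ι.range := ((hmin _ ⟨by
    rintro _ ⟨x, rfl⟩ g
    obtain ⟨s, hs⟩ := all g
    exact ⟨_, (hs x.toAdd).symm⟩⟩ hr).resolve_left fun e => by
      have : ι (ofAdd ![1, 0]) = ι 1 := by rw [map_one]; exact mem_bot.1 (e.le ⟨_, rfl⟩)
      exact one_ne_zero (show (1 : K) = 0 from congrFun (hι this) 0)).ge
  have bor : ∀ g s, (g, s) ∈ indSL ι → s 1 0 = 0 → g ∈ M := fun g s h1 h2 => by
    refine hM ((indSL ι ⊓ (MulAction.stabilizer SL(2, K) (Classical.P1.inf : Classical.P1.PL K)).comap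
      (MonoidHom.snd _ _)).map (MonoidHom.fst _ _)) ⟨_, ⟨ha, (smul_inf_eq_inf_iff' _).2 rfl⟩, rfl⟩
      (fun c hc => ⟨_, ⟨hC c hc, one_smul _ _⟩, rfl⟩) (fun e => ?_) ⟨_, ⟨h1, (smul_inf_eq_inf_iff' _).2 h2⟩, rfl⟩
    obtain ⟨⟨_, s⟩, ⟨h3, h4⟩, rfl : _ = b⟩ := e.ge (mem_top b)
    have : ((PLocal.loT l).1 *ᵥ ![1, 0]) 1 = (s.1 *ᵥ ![1, 0]) 1 :=
      congrFun (hι ((hb ![1, 0]).symm.trans (h3 ![1, 0]))) 1
    have h5 : s 1 0 = 0 := (smul_inf_eq_inf_iff' _).1 h4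
    simp [PLocal.loT, mulVec, dotProduct, h5, hl] at this
  obtain ⟨c, c0, hc⟩ := exists_conj_borel hp2 hl (H := (indSL ι).map (MonoidHom.snd _ _))
    ⟨_, ha, rfl⟩ ⟨_, hb, rfl⟩
  set θ := ZMod.castHom (dvd_refl p) K
  have c1 : c 0 0 ≠ 0 ∧ c 1 1 ≠ 0 := by
    have := c.det_ne_zero
    rwa [det_fin_two, c0, mul_zero, sub_zero, mul_ne_zero_iff] at this
  have key : ∀ s : SL(2, ZMod p), s 1 0 = 0 → ∃ g ∈ M, ∃ h : SL(2, K), (g, h) ∈ indSL ι ∧
      c.val * h.1 * (c⁻¹).val = s.1.map θ ∧ h 1 0 = 0 ∧ h 0 0 = θ (s 0 0) := fun s hs => by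
    obtain ⟨_, ⟨⟨g, h⟩, h1, rfl⟩, h2⟩ := hc s
    have h3 : c.val * h.1 = s.1.map θ * c.val := by
      rw [← h2, mul_assoc, Units.inv_mul, mul_one]; rfl
    have h4 : h 1 0 = 0 := by
      simpa [Matrix.mul_apply, c0, hs, c1.2] using congrFun (congrFun h3 1) 0
    refine ⟨g, bor g h h1 h4, h, h1, h2, h4, mul_left_cancel₀ c1.1 ?_⟩
    simpa [Matrix.mul_apply, c0, h4, mul_comm] using congrFun (congrFun h3 0) 0
  constructor
  · let j : Multiplicative (Fin 2 → ZMod p) →* Multiplicative (Fin 2 → K) :=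
      MonoidHom.mk' (fun x => ofAdd ((c⁻¹).val *ᵥ (θ ∘ x.toAdd))) fun x y => by
        rw [← ofAdd_add, ← mulVec_add]
        congr 2
        ext i
        simp
    refine Pl.of_ind (ι.comp j) (hι.comp fun x y e => ?_) (by rintro _ ⟨x, rfl⟩; exact hr ⟨_, rfl⟩)
      fun s hs => ?_
    · have e1 := congrArg (fun v : Multiplicative (Fin 2 → K) => c.val *ᵥ v.toAdd) e
      simp only [j, MonoidHom.mk'_apply, toAdd_ofAdd, mulVec_mulVec, Units.mul_inv, one_mulVec] at e1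
      exact funext fun i => θ.injective (congrFun e1 i)
    · obtain ⟨g, g1, t, hg, h3, -⟩ := key s hs
      refine ⟨g, g1, fun x => (hg _).trans (congrArg ι (congrArg ofAdd ?_))⟩
      change t.1 *ᵥ ((c⁻¹).val *ᵥ (θ ∘ x)) = (c⁻¹).val *ᵥ (θ ∘ (s.1 *ᵥ x))
      have h4 : θ ∘ (s.1 *ᵥ x) = s.1.map θ *ᵥ (θ ∘ x) := funext fun i => RingHom.map_mulVec θ _ _ i
      rw [h4, ← h3, mulVec_mulVec, mulVec_mulVec, ← mul_assoc, ← mul_assoc, Units.inv_mul, one_mul]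
  have hZV : Z ⊓ V ≠ ⊥ := fun e => hRZ fun y hy => mem_cent.2 fun u hu => by
    obtain ⟨z₀, -, h, h1, h2, -⟩ := key (-1) (by simp)
    have h3 : h = -1 := Subtype.ext (by
      have := congrArg (fun X => (c⁻¹).val * X * c.val) h2
      simpa [mul_assoc, Matrix.map_neg] using this)
    obtain ⟨k, hk⟩ := PLocal.exists_pow_coprime_orderOf (p := p) z₀
    have h4 : (z₀ ^ p ^ k, -1) ∈ indSL ι := by
      simpa [h3, ((hp.out.odd_of_ne_two hp2).pow).neg_one_pow] using pow_mem h1 (p ^ k)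
    set z := z₀ ^ p ^ k
    have h5 : ∀ g, g * z * g⁻¹ ∈ 𝐂⟮Z⟯ := fun g => mem_cent.2 fun w hw => by
      obtain ⟨s, hs⟩ := all g
      have h6 := bor (g * z * g⁻¹) (-1) (by simpa using mul_mem (mul_mem hs h4) (inv_mem hs)) (by simp)
      refine mul_inv_eq_one.1 (mem_bot.1 (e.le (mem_inf.2 ⟨mul_mem
        (conj_mem_of_mem_normalizer (hZ h6) hw) (inv_mem hw), hZR ?_⟩)))
      rw [commutator_comm]
      exact commutator_mem_commutator (mem_pResOf (mem_top _) (by rwa [← MulAut.conj_apply, MulEquiv.orderOf_eq])) hw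
    obtain ⟨x, hx⟩ := hVr (hZR (show y * u * y⁻¹ * u⁻¹ ∈ _ by
      rw [commutator_comm]; exact commutator_mem_commutator hy hu))
    have h7 := h4 x.toAdd
    rw [ofAdd_toAdd, hx, show z * (y * u * y⁻¹ * u⁻¹) * z⁻¹ = y * ((y⁻¹ * z * y⁻¹⁻¹) * u *
      (y⁻¹ * z * y⁻¹⁻¹)⁻¹) * y⁻¹ * ((1 * z * 1⁻¹) * u * (1 * z * 1⁻¹)⁻¹)⁻¹ by group,
      mem_cent.1 (h5 _) u hu, mem_cent.1 (h5 _) u hu, ← hx] at h7
    have h8 : x.toAdd = 0 := funext fun i => (mul_eq_zero.1 ?_).resolve_left (two_ne_zero_of_char hp2)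
    · rw [show x = 1 from h8, map_one, eq_comm, mul_inv_eq_one] at hx; exact hx
    have : x.toAdd i = ((-1 : SL(2, K)).1 *ᵥ x.toAdd) i := congrFun (hι h7) i
    rw [Matrix.SpecialLinearGroup.coe_neg, Matrix.SpecialLinearGroup.coe_one, neg_mulVec, one_mulVec,
      Pi.neg_apply] at this
    linear_combination this
  obtain ⟨y, y0, y1, hy⟩ : ∃ y : Fin 2 → K, y ≠ 0 ∧ y 1 = 0 ∧ ι (ofAdd y) ∈ Z := by
    obtain ⟨⟨v, v1, v2⟩, v3⟩ := ne_bot_iff_exists_ne_one.1 hZV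
    obtain ⟨y, rfl⟩ := hVr v2
    by_cases h : y.toAdd 1 = 0
    · exact ⟨y.toAdd, fun e => v3 (Subtype.ext ((congrArg ι e).trans (map_one ι))), h, v1⟩
    refine ⟨![y.toAdd 1, 0], fun e => h (congrFun e 0), rfl, ?_⟩
    have := mul_mem (conj_mem_of_mem_normalizer (hZ (bor _ _ ha rfl)) v1) (inv_mem v1)
    rw [show a * ι y * a⁻¹ = _ from ha y.toAdd, ← map_inv, ← map_mul] at this
    convert this using 2
    ext i; fin_cases i <;> simp [PLocal.upT, mulVec, dotProduct]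
  obtain ⟨r, hr'⟩ := IsCyclic.exists_ofOrder_eq_natCard (α := (ZMod p)ˣ)
  obtain ⟨t, t1, h, h1, -, h2, h3⟩ := key (dgT _ r) rfl
  refine ⟨t, t1, (r : ZMod p).val, by
    rw [ZMod.natCast_zmod_val, orderOf_units, hr', Nat.card_eq_fintype_card, ZMod.card_units], _, hy,
    fun e => y0 (hι (e.trans (map_one ι).symm)), (h1 y).trans ?_⟩
  rw [← map_pow, ← ofAdd_nsmul]
  congr 2
  have h4 : h 0 0 = ((r : ZMod p).val : K) := by
    rw [h3, ← map_natCast θ, ZMod.natCast_zmod_val]; rfl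
  ext i; fin_cases i <;> simp [mulVec, dotProduct, y1, h2, h4]

theorem comm_pRes_le {U : Subgroup G} [U.Normal] (hU : IsPGroup p U) :
    ⁅U, pResOf p (⊤ : Subgroup G)⁆ ≤ ⁅⁅U, pResOf p (⊤ : Subgroup G)⁆, pResOf p (⊤ : Subgroup G)⁆ := by
  haveI := pResOf_normal (p := p) (⊤ : Subgroup G)
  refine le_centMod'.1 (pResOf_le_iff.2 fun y _ hy => zpowers_le.1 (le_centMod'.2 ?_))
  have h := zpowers_le.2 (mem_pResOf (mem_top y) hy)
  rw [← Core.commutator_commutator_eq _ _ (le_norm_of_normal _ _) (coprime_card_zpowers hy hU)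
    (Or.inr (Core.solvable_of_isPGroup hU))]
  exact commutator_mono (commutator_mono le_rfl h) h

theorem pl_of_top {G : Type u} [Group G] [Finite G] (hp2 : p ≠ 2) {B B₀ M Z : Subgroup G} [B.Normal]
    [B₀.Normal] {a x : G} (hB : IsPGroup p B) (hY : IsPGroup p ↥(zpowers a ⊔ pCore p G))
    (h : MinIn (zpowers a ⊔ pCore p G) ⊤ M)
    (hgen : ⊤ ≤ closure {a, x * a * x⁻¹} ⊔ pCore p G) (h0 : pResOf p ⊤ ≤ 𝐂⟮B₀⟯)
    (hq : ∀ v ∈ B, ⁅a, ⁅a, v⁆⁆ ∈ B₀) (hZB : Z ≤ B) (hc : Z ≤ 𝐂⟮Z⟯) (hZ : M ≤ 𝐍⟮Z⟯)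
    (hn : ¬ ⊤ ≤ 𝐍⟮Z⟯) : Pl p B M ∧ Eig p Z M := by
  haveI := pResOf_normal (p := p) (⊤ : Subgroup G)
  have hM := fun X h1 h2 => h.le_of_lt X h1 (lt_top_iff_ne_top.2 h2)
  set R := pResOf p (⊤ : Subgroup G) with hR
  set U := cjClos Z ⊤
  haveI : U.Normal := normal_of_top_le (le_normalizer_cjClos _ _)
  have u1 : U ≤ B := cjClos_le hZB (le_norm_of_normal _ _)
  have u2 : ⁅U, R⁆ ≤ B := (commutator_le_left _ _).trans u1
  have u3 : ⊥ < ⁅U, R⁆ := bot_lt_iff_ne_bot.2 fun e => hn (by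
    obtain ⟨T, t1, t2⟩ := exists_isSylowIn_le hY le_top
    refine t1.pResOf_sup.ge.trans (sup_le ((Core.le_centralizer_iff_commutator_eq_bot.2 e).trans
      ((cent_anti (le_cjClos _ _)).trans (centralizer_le_normalizer' _))) ((hM _ t2 ?_).trans hZ))
    rintro rfl
    exact h.lt.not_ge ((le_pCore inferInstance t1.pgrp).trans (le_sup_right.trans h.le)))
  obtain ⟨U₀, ⟨_, v1⟩, v2⟩ := (wellFounded_gt (α := Subgroup G)).has_min
    {N | N.Normal ∧ N < ⁅U, R⁆} ⟨⊥, inferInstance, u3⟩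
  set π := QuotientGroup.mk' U₀
  have su : Function.Surjective π := QuotientGroup.mk'_surjective _
  have ker : π.ker = U₀ := QuotientGroup.ker_mk' _
  set V := ⁅U, R⁆.map π
  haveI : V.Normal := Normal.map inferInstance π su
  have eR : pResOf p ⊤ = R.map π := by rw [hR, map_pResOf, map_top_of_surjective _ su]
  have hmin : ∀ N : Subgroup (G ⧸ U₀), N.Normal → N ≤ V → N = ⊥ ∨ N = V := fun N _ h => by
    have a1 : N.comap π ≤ ⁅U, R⁆ := (comap_mono h).trans (comap_map_eq_self (ker.le.trans v1.le)).le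
    rcases a1.lt_or_eq with a2 | a2
    · left
      have a3 : U₀ ≤ N.comap π := ker.ge.trans (ker_le_comap _ _)
      rw [← map_comap_eq_self_of_surjective su N, ← a3.eq_of_not_lt (v2 _ ⟨inferInstance, a2⟩),
        Subgroup.map_eq_bot_iff, ker]
    · exact Or.inr (by rw [← map_comap_eq_self_of_surjective su N, a2])
  have V0 : V ≠ ⊥ := fun e => v1.not_ge (ker ▸ (Subgroup.map_eq_bot_iff _).1 e)
  have Vp : IsPGroup p V := (hB.to_le u2).map π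
  have VO : V ≤ 𝐂⟮(pCore p G).map π⟯ := by
    haveI : ((pCore p G).map π).Normal := Normal.map inferInstance π su
    exact inf_eq_left.1 ((hmin _ inferInstance inf_le_left).resolve_left
      (inf_centralizer_ne_bot ((Core.pCore_isPGroup p).map π) Vp (le_norm_of_normal _ _) V0))
  have hV : IsElementaryAbelian p V := by
    haveI := Transfer.omegaOneCenter_normal (p := p) V
    rw [← (hmin _ inferInstance (omegaOneCenter_le V)).resolve_left (omegaOneCenter_ne_bot Vp V0)]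
    exact elemAb_omegaOneCenter V
  have hRV : ¬ pResOf p ⊤ ≤ 𝐂⟮V⟯ := fun e => V0 (eq_bot_iff.2 ((map_mono (comm_pRes_le
    (hB.to_le u1))).trans (by
      rw [map_commutator, ← eR]; exact (Core.le_centralizer_iff_commutator_eq_bot.1 e).le)))
  have qa : PLocal.Quad V (π a) := PLocal.Quad.map_of_mem_ker π fun v hv => by
    have a1 : (⁅U, R⁆ ⊓ B₀).map π = ⊥ := (hmin _ (Normal.map inferInstance π su)
      (map_mono inf_le_left)).resolve_right fun e => hRV (by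
        rw [← e, eR]; exact map_le_cent (h0.trans (cent_anti inf_le_right)))
    refine (Subgroup.map_eq_bot_iff _).1 a1 ⟨?_, hq v (u2 hv)⟩
    exact commutator_le_right ⊤ _ (commutator_mem_commutator (mem_top a)
      (commutator_le_right ⊤ _ (commutator_mem_commutator (mem_top a) hv)))
  obtain ⟨k1, k2⟩ := pl_of_min hp2 (M := M.map π) (Z := Z.map π) hV hmin (b := π x * π a * (π x)⁻¹)
    (fun X h1 h2 h3 => by
      rw [← map_comap_eq_self_of_surjective su X]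
      exact map_mono (hM _ (sup_le (zpowers_le.2 h1) (map_le_iff_le_comap.1 ((le_cent_comm VO).trans h2)))
        fun e => h3 (by rw [← map_comap_eq_self_of_surjective su X, e, map_top_of_surjective _ su])))
    (by
      rw [← map_top_of_surjective _ su]
      refine (map_mono hgen).trans ?_
      rw [Subgroup.map_sup, MonoidHom.map_closure, Set.image_pair, map_mul, map_mul, map_inv]
      exact sup_le_sup_left (le_cent_comm VO) _)
    qa (qa.conj (le_norm_of_normal ⊤ _ trivial)) hRV ((map_mono hZ).trans (map_norm_le π Z))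
    (by rw [eR, ← map_commutator]; exact map_mono (commutator_mono (le_cjClos _ _) le_rfl))
    fun e => V0 (by
      haveI : (R.map π).Normal := Normal.map inferInstance π su
      rw [show V = _ from map_commutator _ _ _, ← Core.le_centralizer_iff_commutator_eq_bot']
      exact map_le_iff_le_comap.2 (cjClos_le (map_le_iff_le_comap.1 (le_cent_comm (eR ▸ e)))
        (le_norm_of_normal _ _)))
  exact ⟨(k1.of_act (map_mono u2) fun m hm => ⟨m, hm, fun _ _ => rfl⟩).of_map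
    (ker.le.trans (v1.le.trans u2)), k2.of_map hc hZ⟩

theorem pl_of_quad {G : Type u} [Group G] [Finite G] (hp2 : p ≠ 2) {L T M B B₀ Z : Subgroup G} {a : G}
    (hT : IsSylowIn p T L) (h : MinIn T L M) (hB : B ≤ pCoreOf p L) (nB : L ≤ 𝐍⟮B⟯)
    (nB₀ : L ≤ 𝐍⟮B₀⟯) (h0 : pResOf p L ≤ 𝐂⟮B₀⟯) (ha : a ∈ T) (ha' : a ∉ pCoreOf p L)
    (hq : ∀ v ∈ B, ⁅a, ⁅a, v⁆⁆ ∈ B₀) (hZB : Z ≤ B) (hc : Z ≤ 𝐂⟮Z⟯) (hZ : M ≤ 𝐍⟮Z⟯)
    (hn : ¬ L ≤ 𝐍⟮Z⟯) : Pl p B M ∧ Eig p Z M := by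
  have a1 : zpowers a ⊔ pCoreOf p L ≤ T := sup_le (zpowers_le.2 ha) hT.pCoreOf_le
  obtain ⟨K, k1, k2, g, hg, k3, k4⟩ := l_lemma' hT h a1 fun e => ha' (e (mem_sup_left (mem_zpowers a)))
  have k5 := pCoreOf_le_of_le k1 (le_sup_right.trans k2)
  rw [sup_assoc, sup_eq_right.2 k5] at k3
  obtain ⟨x, x1, x2⟩ := SetLike.exists_of_lt k3.lt
  replace x2 : x ∉ cj g M := fun e => x2 ⟨x1, e⟩
  have aK : a ∈ K := k2 (mem_sup_left (mem_zpowers a))
  have BK : B ≤ K := hB.trans (le_sup_right.trans k2)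
  have gB : cj g B = B := cj_eq_of_mem_normalizer (nB hg)
  have ZB : cj g Z ≤ B := (cj_mono g hZB).trans gB.le
  haveI := normal_subgroupOf_of_le_normalizer (k1.trans nB)
  haveI := normal_subgroupOf_of_le_normalizer (k1.trans nB₀)
  have eY : (zpowers (⟨a, aK⟩ : K) ⊔ pCore p K).map K.subtype = zpowers a ⊔ pCoreOf p K := by
    rw [Subgroup.map_sup, MonoidHom.map_zpowers]; rfl
  obtain ⟨r1, r2⟩ := pl_of_top hp2 (B := B.subgroupOf K) (B₀ := B₀.subgroupOf K)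
    (M := (cj g M).subgroupOf K) (Z := (cj g Z).subgroupOf K) (a := ⟨a, aK⟩) (x := ⟨x, x1⟩)
    (isPGroup_subgroupOf ((isPGroup_pCoreOf L).to_le hB))
    (isPGroup_sup (isPGroup_subgroupOf (K := K) hT.pgrp |>.to_le (zpowers_le.2 ha))
      (Core.pCore_isPGroup p) (le_norm_of_normal _ _))
    (minIn_top.2 (minIn_map_subtype.1 (by rwa [eY, subgroupOf_map_subtype, inf_comm])))
    (by
      rw [← map_le_map_iff_of_injective K.subtype_injective, map_subtype_top, Subgroup.map_sup,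
        MonoidHom.map_closure, Set.image_pair]
      refine (k4 x x1 x2).trans (sup_le (sup_le (sup_le ?_ (k5.trans le_sup_right)) ?_) le_sup_right)
      · exact zpowers_le.2 (mem_sup_left (subset_closure (Or.inl rfl)))
      · rw [cj_sup, cj_zpowers, cj_eq_of_mem_normalizer (le_normalizer_pCoreOf L (k1 x1))]
        exact sup_le (zpowers_le.2 (mem_sup_left (subset_closure (Or.inr rfl)))) (k5.trans le_sup_right))
    (pResOf_le_iff.2 fun y _ hy w hw => Subtype.ext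
      (h0 (mem_pResOf (k1 y.2) (by rwa [Subgroup.orderOf_coe])) _ hw))
    (fun v hv => hq v hv) (subgroupOf_mono _ ZB)
    (fun y hy w hw => Subtype.ext ((cj_centralizer g Z).le (cj_mono g hc hy) _ hw))
    (by
      rw [← subgroupOf_normalizer_eq (ZB.trans BK), ← cj_normalizer]
      exact subgroupOf_mono _ (cj_mono g hZ))
    fun e => x2 (by
      have : x ∈ 𝐍⟮cj g Z⟯ := (subgroupOf_normalizer_eq (ZB.trans BK)).ge (e (mem_top ⟨x, x1⟩))
      refine cj_mono g (h.le_of_lt (L ⊓ 𝐍⟮Z⟯) (le_inf hT.le (h.le.trans hZ)) (inf_lt_left.2 hn)) ?_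
      rw [cj_inf, cj_eq_of_mem hg, cj_normalizer]
      exact ⟨k1 x1, this⟩)
  have r3 := (r1.map K.subtype_injective).of_act (B' := cj g B) (M' := cj g M)
    (by rw [gB, map_subgroupOf_eq_of_le BK]) fun m hm =>
      ⟨m, ((subgroupOf_map_subtype _ _).le hm).1, fun _ _ => rfl⟩
  have r4 := (r2.map K.subtype_injective).of_act (Z' := cj g Z) (M' := cj g M)
    (by rw [map_subgroupOf_eq_of_le (ZB.trans BK)]) fun m hm =>
      ⟨m, ((subgroupOf_map_subtype _ _).le hm).1, fun _ _ => rfl⟩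
  exact ⟨Pl.of_map (f := (MulAut.conj g).toMonoidHom) r3
    (((MonoidHom.ker_eq_bot_iff _).2 (MulAut.conj g).injective).le.trans bot_le),
    Eig.of_map (f := (MulAut.conj g).toMonoidHom) r4 hc hZ⟩

/-- The failure of the `ZJ`-theorem in a minimal parabolic group. -/
theorem exists_quad_zj (hp2 : p ≠ 2) {L T M Y : Subgroup G} (hT : IsSylowIn p T L) (h : MinIn T L M)
    (hc : Y ≤ 𝐂⟮Y⟯) (hJ : Y ≤ 𝐂⟮PLocal.jn 0 T⟯) (hTY : T ≤ 𝐍⟮Y⟯) (hn : ¬ L ≤ 𝐍⟮PLocal.jn 0 T⟯)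
    (hY : ¬ L ≤ 𝐍⟮Y ⊓ pCoreOf p L⟯) : ∃ B ≤ pCoreOf p L, L ≤ 𝐍⟮B⟯ ∧ ¬ L ≤ 𝐍⟮Y ⊓ B⟯ ∧
      ∃ a ∈ T, a ∉ pCoreOf p L ∧ PLocal.Quad B a := by
  set P := pCoreOf p L
  have nP : L ≤ 𝐍⟮P⟯ := le_normalizer_pCoreOf L
  have PT : P ≤ T := hT.pCoreOf_le
  obtain ⟨B, ⟨b1, b2, b3⟩, b4⟩ := (wellFounded_lt (α := Subgroup G)).has_min
    {B | B ≤ P ∧ L ≤ 𝐍⟮B⟯ ∧ ¬ L ≤ 𝐍⟮Y ⊓ B⟯} ⟨P, le_rfl, nP, hY⟩
  have ih : ∀ C, C < B → L ≤ 𝐍⟮C⟯ → L ≤ 𝐍⟮Y ⊓ C⟯ := fun C h1 h2 =>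
    by_contra fun e => b4 C ⟨h1.le.trans b1, h2, e⟩ h1
  have BT := b1.trans PT
  have gen : ∀ K, L ≤ 𝐍⟮K⟯ → Y ⊓ B ≤ K → B ≤ K := fun K h1 h2 => by_contra fun e => b3 (by
    have := ih (B ⊓ K) (inf_lt_left.2 e) (le_normalizer_inf b2 h1)
    rwa [← inf_assoc, inf_eq_left.2 h2] at this)
  have B0 : B ≠ ⊥ := fun e => b3 (by rw [e, inf_bot_eq]; exact le_norm_of_normal _ _)
  have nD := le_normalizer_commutator b2 b2
  have hW := ih _ (Core.commutator_lt_of_solvable (Core.solvable_of_isPGroup (hT.pgrp.to_le BT)) B0) nD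
  have hder : ⁅B, B⁆ ≤ Y := (le_centMod.1 (gen _ (le_normalizer_centMod b2 hW) (le_centMod.2
    ⟨(inf_le_right.trans (BT.trans hT.le)).trans hW, le_inf ((commutator_mono le_rfl inf_le_left).trans
      (commutator_le_right_of_le_normalizer (BT.trans hTY)))
      (commutator_mono le_rfl inf_le_right)⟩))).2.trans inf_le_left
  have hin : ∀ A ∈ PLocal.abFam 0 T, A ≤ P → B ≤ A := fun A hA hAP x hx =>
    PLocal.abFam.mem_of_centralizes hA (BT hx) (cent_anti (PLocal.abFam.le_jn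
      (PLocal.abFam.of_le hA hAP PT)) (gen _ (le_normalizer_centralizer (nP.trans
        (PLocal.normalizer_le_normalizer_jn 0 P))) (inf_le_left.trans (hJ.trans
          (cent_anti (PLocal.jn_mono_of_mem hA hAP PT)))) hx)) (pow_zero x)
  refine ⟨B, b1, b2, b3, ?_⟩
  obtain ⟨A, hA, hAP, hBA⟩ : ∃ A ∈ PLocal.abFam 0 T, ¬ A ≤ P ∧ B ≤ 𝐍⟮A⟯ := by
    obtain ⟨U, hU, hUP⟩ : ∃ U ∈ PLocal.abFam 0 T, ¬ U ≤ P := by
      by_contra! e
      rw [← PLocal.jn_eq_of_le (PLocal.jn_le_iff.2 e) PT] at hn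
      exact hn (nP.trans (PLocal.normalizer_le_normalizer_jn 0 P))
    by_cases e : B ≤ U
    · exact ⟨U, hU, hUP, e.trans le_normalizer⟩
    obtain ⟨A, h1, -, h2, h3⟩ := PLocal.exists_abFam_normalized (Or.inl rfl) hT.pgrp le_rfl BT
      le_normalizer (hT.le.trans b2) (Or.inr hp2) hU (fun x hx => PLocal.abFam.mem_of_centralizes hU
        (BT (commutator_le_of_le le_rfl le_rfl hx)) (cent_anti (PLocal.abFam.le_jn hU)
          (hJ (hder hx))) (pow_zero x)) e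
    exact ⟨A, h1, fun e => h2 (hin A h1 e), h3⟩
  obtain ⟨a, a1, a2⟩ := SetLike.not_le_iff_exists.1 hAP
  exact ⟨a, PLocal.abFam.le hA a1, a2, PLocal.quad_of_abelian_normalized (PLocal.abFam.comm hA) hBA a1⟩

theorem le_pCoreOf_of_stab {L K N : Subgroup G} (hG : LocalEven.CharP p L) (h1 : N ≤ L)
    (h2 : L ≤ 𝐍⟮N⟯) (h3 : ⁅pCoreOf p L, N⁆ ≤ K) (h4 : pResOf p N ≤ 𝐂⟮K⟯) (hK : IsPGroup p K) :
    N ≤ pCoreOf p L := by
  refine le_pCoreOf h1 h2 (isPGroup_of_forall_coprime fun x hx hc => ?_)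
  have := Core.le_centralizer_of_commutator_le_of_centralizes _ _ _ (coprime_card_zpowers hc hK)
    (zpowers_le.2 (h4 (mem_pResOf hx hc))) ((commutator_mono le_rfl (zpowers_le.2 hx)).trans h3)
  exact eq_one_of_coprime_of_mem (isPGroup_pCoreOf L) (hG ⟨h1 hx, this (mem_zpowers x)⟩) hc

theorem exists_quad_mod' {L T Q : Subgroup G} [Q.Normal] (hT : IsSylowIn p T L)
    (hG : LocalEven.CharP p L) (hlt : Q < T) (h0 : pResOf p L ≤ 𝐂⟮Q⟯)
    (hn : ∀ K, Q < K → K ≤ T → 𝐍⟮T⟯ ≤ 𝐍⟮K⟯ → ¬ L ≤ 𝐍⟮K⟯) :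
    ∃ B ≤ pCoreOf p L, L ≤ 𝐍⟮B⟯ ∧ (∀ D ≤ T, T ≤ 𝐍⟮D⟯ → D ⊓ B ≤ Q → D ≤ Q) ∧
      ∃ a ∈ T, a ∉ pCoreOf p L ∧ ∀ v ∈ B, ⁅a, ⁅a, v⁆⁆ ∈ Q := by
  set π := QuotientGroup.mk' Q
  have su : Function.Surjective π := QuotientGroup.mk'_surjective _
  have ker : π.ker = Q := QuotientGroup.ker_mk' _
  have Qp := hT.pgrp.to_le hlt.le
  have nc : ∀ {X : Subgroup G} {Y : Subgroup (G ⧸ Q)}, X.map π ≤ 𝐍⟮Y⟯ → X ≤ 𝐍⟮Y.comap π⟯ :=
    fun h => (map_le_iff_le_comap.1 h).trans (le_normalizer_comap π)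
  have eT : (T.map π).comap π = T := comap_map_eq_self (ker.le.trans hlt.le)
  have T0 : T.map π ≠ ⊥ := fun e => hlt.not_ge (ker ▸ (Subgroup.map_eq_bot_iff _).1 e)
  obtain ⟨_, ⟨a, a1, rfl⟩, a2, a3⟩ := S2799.loc (hT.map π) fun e => hn _
    (lt_of_le_of_ne (ker.ge.trans (ker_le_comap π _)) fun e' => PLocal.jn_ne_bot (Or.inl rfl)
      (hT.pgrp.map π) T0 (by
        rw [← map_comap_eq_self_of_surjective su (PLocal.jn _ _), ← e', Subgroup.map_eq_bot_iff, ker]))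
    ((comap_mono (PLocal.jn_le _)).trans eT.le)
    (nc ((map_norm_le π T).trans (PLocal.normalizer_le_normalizer_jn 0 _))) (nc e)
  set P := pCoreOf p (L.map π)
  have nP : L.map π ≤ 𝐍⟮P⟯ := le_normalizer_pCoreOf _
  have eP : P.comap π ≤ pCoreOf p L := le_pCoreOf ((comap_mono (pCoreOf_le _)).trans
    (comap_map_eq_self (ker.le.trans (hlt.le.trans hT.le))).le) (nc nP)
    ((isPGroup_pCoreOf _).comap_of_ker_isPGroup π (by rwa [ker]))
  refine ⟨(P ⊓ 𝐂⟮P⟯).comap π, (comap_mono inf_le_left).trans eP,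
    nc (le_normalizer_inf nP (le_normalizer_centralizer nP)), fun D d1 d2 d3 => ?_, a, a1,
    fun e => a2 (map_pCoreOf_le π L (mem_map_of_mem π e)), fun v hv => ?_⟩
  · rw [← ker, ← Subgroup.map_eq_bot_iff]
    by_contra e
    obtain ⟨⟨_, ⟨d, d4, rfl⟩, d5⟩, d6⟩ := ne_bot_iff_exists_ne_one.1 (inf_centralizer_ne_bot
      (hT.pgrp.map π) ((hT.pgrp.to_le d1).map π) ((map_mono d2).trans (map_norm_le π D)) e)
    refine d6 (Subtype.ext (ker.ge (d3 ⟨d4, map_pCoreOf_le π L (mem_map_of_mem π ?_),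
      cent_anti (hT.map π).pCoreOf_le d5⟩)))
    refine le_pCoreOf_of_stab (N := L ⊓ centMod (pCoreOf p L) Q) hG inf_le_left (le_normalizer_inf
      le_normalizer (le_normalizer_centMod (le_normalizer_pCoreOf L) (le_norm_of_normal _ _)))
      (le_centMod'.1 inf_le_right) ((pResOf_mono inf_le_left).trans h0) Qp
      ⟨hT.le (d1 d4), le_norm_of_normal ⊤ _ trivial, fun v hv => ker.le ?_⟩
    rw [MonoidHom.mem_ker, map_commutatorElement, commutatorElement_eq_one_iff_mul_comm]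
    exact d5 _ (mem_map_of_mem π (hT.pCoreOf_le hv))
  · refine ker.le ?_
    rw [MonoidHom.mem_ker, map_commutatorElement, map_commutatorElement]
    exact PLocal.Quad.of_zpowers a3 _ hv

theorem exists_quad_mod {L T Q : Subgroup G} (hT : IsSylowIn p T L) (hG : LocalEven.CharP p L)
    (hlt : Q < T) (nQ : L ≤ 𝐍⟮Q⟯) (h0 : pResOf p L ≤ 𝐂⟮Q⟯)
    (hn : ∀ K, Q < K → K ≤ T → 𝐍⟮T⟯ ⊓ 𝐍⟮Q⟯ ≤ 𝐍⟮K⟯ → ¬ L ≤ 𝐍⟮K⟯) :
    ∃ B ≤ pCoreOf p L, L ≤ 𝐍⟮B⟯ ∧ (∀ D ≤ T, T ≤ 𝐍⟮D⟯ → D ⊓ B ≤ Q → D ≤ Q) ∧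
      ∃ a ∈ T, a ∉ pCoreOf p L ∧ ∀ v ∈ B, ⁅a, ⁅a, v⁆⁆ ∈ Q := by
  set N := 𝐍⟮Q⟯
  have TN := hT.le.trans nQ
  have QN : Q ≤ N := le_normalizer
  have up : ∀ {X : Subgroup G} {K : Subgroup N}, X ≤ N → X.subgroupOf N ≤ 𝐍⟮K⟯ →
      X ≤ 𝐍⟮K.map N.subtype⟯ := fun h1 h2 =>
    (map_subgroupOf_eq_of_le h1).ge.trans ((map_mono h2).trans (map_norm_le _ _))
  obtain ⟨B, b1, b2, b3, a, a1, a2, a3⟩ := exists_quad_mod' (Q := Q.subgroupOf N) (hT.subgroupOf nQ)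
    ((charP_subgroupOf nQ).2 hG) (lt_of_le_of_ne (subgroupOf_mono _ hlt.le) fun e => hlt.ne (by
      rw [← map_subgroupOf_eq_of_le QN, e, map_subgroupOf_eq_of_le TN]))
    (by rw [pResOf_subgroupOf_eq nQ]; exact fun y hy w hw => Subtype.ext (h0 hy _ hw))
    fun K k1 k2 k3 k4 => hn (K.map N.subtype)
      (by rw [← map_subgroupOf_eq_of_le QN]; exact (map_lt_map_iff_of_injective N.subtype_injective).2 k1)
      (map_le_iff_le_comap.2 k2)
      (up inf_le_right (by rwa [inf_subgroupOf_right, subgroupOf_normalizer_eq TN])) (up nQ k4)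
  rw [pCoreOf_subgroupOf_eq nQ] at b1 a2
  refine ⟨B.map N.subtype, map_le_iff_le_comap.2 b1, up nQ b2, fun D d1 d2 d3 x hx => b3 (D.subgroupOf N)
    (subgroupOf_mono _ d1) (by rw [← subgroupOf_normalizer_eq (d1.trans TN)]; exact subgroupOf_mono _ d2)
    (fun y hy => d3 ⟨hy.1, mem_map_of_mem _ hy.2⟩) (show (⟨x, TN (d1 hx)⟩ : N) ∈ _ from hx), a, a1, a2, ?_⟩
  rintro _ ⟨v, hv, rfl⟩
  exact a3 v hv

end Cfsg.Agent.Glaub
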